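import Cfsg.Agent.Lib.St.Lie
import Cfsg.Agent.Lib.Mult.Fam
import Cfsg.Agent.Lib.Orth.Binary
import Cfsg.Agent.Lib.CharDeg.DerivedP
import Cfsg.Agent.Lib.Clifford.Degree

/-!
Existence of a Steinberg character in the classical groups, small cases included.
-/

namespace Cfsg.Lib.St
open Cfsg.Lib.Chev Cfsg.Lib.Twisted Cfsg.Lib.Char Subgroup Cfsg.Lib.Unitary Cfsg.Lib.Orth
open scoped commutatorElement

/-- there is an irreducible character whose degree is the `p`-part of the order -/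
def HasSt (p : ℕ) (G : Type*) [Group G] : Prop :=
  ∃ χ : G → ℂ, IsIrrCharacter G χ ∧ χ 1 = (p ^ (Nat.card G).factorization p : ℕ)

variable {p : ℕ} {G H : Type*} [Group G] [Group H]

theorem HasSt.congr (h : HasSt p G) (e : H ≃* G) : HasSt p H :=
  let ⟨_, h1, h2⟩ := h
  ⟨_, h1.comp_equiv e, by rw [map_one, h2, Nat.card_congr e.toEquiv]⟩

theorem HasSt.prod [Finite G] [Finite H] (h : HasSt p G) (h' : HasSt p H) : HasSt p (G × H) :=
  let ⟨_, h1, h2⟩ := h
  let ⟨_, h3, h4⟩ := h'
  ⟨_, h1.prod h3, by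
    simp [h2, h4, Nat.factorization_mul Nat.card_pos.ne' Nat.card_pos.ne', pow_add]⟩

theorem HasSt.of_not_dvd (h : ¬ p ∣ Nat.card G) : HasSt p G :=
  ⟨_, isIrrCharacter_one, by simp [Nat.factorization_eq_zero_of_not_dvd h]⟩

theorem HasSt.result [Finite G] [hp : Fact p.Prime] (h : HasSt p G) :
    ∃ χ : G → ℂ, IsIrrCharacter G χ ∧
      ∀ P : Sylow p G, χ 1 = Nat.card P ∧ ∀ x : G, x ∈ P → x ≠ 1 → χ x = 0 := by
  obtain ⟨χ, h1, h2⟩ := h
  refine ⟨χ, h1, fun P => ⟨by rw [h2, P.card_eq_multiplicity], fun x hx h => ?_⟩⟩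
  refine h1.apply_eq_zero_of_defect_zero hp.out (charDegree_eq_of_apply_one h2).symm.dvd ?_
  obtain ⟨k, hk⟩ := IsPGroup.iff_orderOf.1 P.isPGroup' ⟨x, hx⟩
  rw [orderOf_mk] at hk
  exact hk ▸ dvd_pow_self p fun e => h (orderOf_eq_one_iff.1 (by simpa [e] using hk))

theorem LieP.hasSt [Finite G] [hp : Fact p.Prime] (L : LieP p G) : HasSt p G :=
  ⟨_, L.T.st_irr Finset.coe_univ, by rw [L.S.st_one Finset.coe_univ, L.S.card_U_eq hp.out]⟩

theorem LieDat.hasSt [Fact p.Prime] (D : LieDat p G) : HasSt p G :=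
  haveI := D.finite
  D.lieP.hasSt

theorem hasSt_of_comm (h : ∀ a b : G, a * b = b * a) (hp : p.Prime) : HasSt p (G ⧸ center G) :=
  .of_not_dvd (by
    rw [← index_eq_card, show center G = ⊤ from eq_top_iff.2 fun a _ => mem_center_iff.2 fun b => h b a,
      index_top]
    exact hp.not_dvd_one)

theorem hasSt_of_dvd (h : Nat.card G ∣ 18) : HasSt 2 (G ⧸ center G) := by
  classical
  haveI := Nat.finite_of_card_ne_zero (ne_zero_of_dvd_ne_zero (by decide) h)
  by_cases h2 : 2 ∣ Nat.card (G ⧸ center G)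
  swap; · exact .of_not_dvd h2
  have h3 : Nat.card (G ⧸ center G) ∣ 18 := (card_quotient_dvd_card _).trans h
  have h4 : ¬ 2 ∣ Nat.card (center G) := fun h4 => by
    have := (mul_dvd_mul h2 h4).trans ((card_eq_card_quotient_mul_card_subgroup _).symm.dvd.trans h)
    omega
  have h5 : _root_.commutator (G ⧸ center G) ≠ ⊥ := fun h5 => by
    obtain ⟨t, ht⟩ := exists_prime_orderOf_dvd_card' 2 (h2.trans (card_quotient_dvd_card _))
    refine h4 (ht ▸ orderOf_dvd_natCard _ (mem_center_iff.2 fun g => ?_))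
    have h6 : ⁅t, g⁆ ∈ center G := (QuotientGroup.eq_one_iff _).1
      (h5.le (commutator_mem_commutator (mem_top (t : G ⧸ center G)) (mem_top (g : G ⧸ center G))))
    have h7 : ⁅t, g⁆ ^ 2 = 1 := by
      have h8 : t * t = 1 := by rw [← sq, ← ht, pow_orderOf_eq_one]
      calc _ = ⁅t, g⁆ * t * g * t⁻¹ * g⁻¹ := by rw [sq, commutatorElement_def t g]; group
        _ = (t * t) * g * (t * t)⁻¹ * g⁻¹ := by
          rw [← mem_center_iff.1 h6 t, commutatorElement_def]; group
        _ = 1 := by rw [h8]; group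
    have := (Nat.prime_two.eq_one_or_self_of_dvd _ (orderOf_dvd_of_pow_eq_one h7)).resolve_right
      fun e => h4 (e ▸ orderOf_dvd_natCard _ h6)
    exact (commutatorElement_eq_one_iff_mul_comm.1 (orderOf_eq_one_iff.1 this)).symm
  obtain ⟨χ, hχ⟩ : ∃ χ : IrrCharacter (G ⧸ center G), (χ : G ⧸ center G → ℂ) 1 ≠ 1 := by
    by_contra! h6
    have := CharDeg.card_eq_index_commutator_add (G ⧸ center G)
    simp only [h6, ne_eq, not_true, Finset.filter_false, Finset.sum_empty, add_zero] at this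
    exact h5 (card_eq_one.1 (mul_right_cancel₀ Nat.card_pos.ne' (by
      rw [one_mul]; exact (congrArg _ this).trans (card_mul_index _))))
  haveI : Fact (Nat.Prime 3) := ⟨Nat.prime_three⟩
  obtain ⟨P⟩ : Nonempty (Sylow 3 (G ⧸ center G)) := inferInstance
  have h6 : P.index = 2 := by
    have h7 := P.not_dvd_index
    have h8 := (index_dvd_card P.1).trans h3
    have h9 : 2 ∣ P.index := ((Nat.prime_two.dvd_mul.1 (P.1.card_mul_index ▸ h2)).resolve_left
      (by rw [P.card_eq_multiplicity]; exact fun h => by simpa using Nat.prime_two.dvd_of_dvd_pow h))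
    have := Nat.le_of_dvd (by decide) h8
    interval_cases P.index <;> omega
  haveI := normal_of_index_eq_two h6
  have h7 : Nat.card P ∣ 3 ^ 2 := Nat.dvd_of_mul_dvd_mul_right two_pos
    (by rw [← h6, P.1.card_mul_index, h6]; exact h3)
  have h8 := Clifford.charDegree_dvd_index_of_comm (N := P) χ.2 fun a ha b hb => by
    obtain ⟨k, hk, h9⟩ := (Nat.dvd_prime_pow Nat.prime_three).1 h7
    have : IsMulCommutative P := by
      interval_cases k
      · haveI := (Nat.card_eq_one_iff_unique.1 h9).1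
        exact ⟨⟨fun _ _ => Subsingleton.elim _ _⟩⟩
      · haveI := isCyclic_of_prime_card (p := 3) h9
        infer_instance
      · exact IsPGroup.isMulCommutative_of_card_eq_prime_sq h9
    exact congrArg Subtype.val (this.is_comm.comm (⟨a, ha⟩ : P) ⟨b, hb⟩)
  refine ⟨_, χ.2, ?_⟩
  have h9 : (Nat.card (G ⧸ center G)).factorization 2 = 1 := by
    have := Nat.le_of_dvd (by decide) h3
    interval_cases Nat.card (G ⧸ center G) <;> first | omega | decide +kernel
  rw [h6] at h8
  rw [h9, χ.2.apply_one_eq, (Nat.prime_two.eq_one_or_self_of_dvd _ h8).resolve_left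
    fun e => hχ (by rw [χ.2.apply_one_eq, e, Nat.cast_one]), pow_one]

theorem card_omega_exc : Nat.card (_root_.commutator (O (qPlus 2 (ZMod 2)))) ∣ 18 := by
  let a : Fin 2 ⊕ Fin 2 → ZMod 2 := Sum.elim ![1, 0] ![1, 0]
  let c : (Fin 2 ⊕ Fin 2 → ZMod 2) → ℤˣ := fun v =>
    if v = a ∨ qPlus 2 _ (v + a) = 1 then 1 else -1
  have h1 : ∀ v w, qPlus 2 _ v = 1 → qPlus 2 _ w = 1 →
      c v * c w = if v = w ∨ qPlus 2 _ (v + w) = 1 then 1 else -1 := by
    simp only [c, qPlus_apply]; decide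
  have ha : qPlus 2 _ a = 1 := by simp only [qPlus_apply]; decide
  let f : O (qPlus 2 (ZMod 2)) →* ℤˣ := MonoidHom.mk' (fun g => c (g.1 a)) fun g h => by
    have h2 := h1 _ _ ((g.2 a).trans ha) ((g.2 _).trans ((h.2 a).trans ha))
    rw [← map_add, g.2] at h2
    simp only [g.1.injective.eq_iff] at h2
    rw [← h1 _ _ ha ((h.2 a).trans ha), show c a = 1 by simp [c], one_mul] at h2
    rw [← h2, ← mul_assoc, Int.units_mul_self, one_mul, O.mul_apply]
  let φ := (dickson (nd_qPlus (F := ZMod 2) 2)).prod f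
  have h2 : φ (refl _ a) = (-1, 1) := Prod.ext (dickson_refl _ (ha ▸ one_ne_zero))
    (show c _ = 1 by rw [refl_apply_self (ha ▸ one_ne_zero)]; simp only [c, qPlus_apply]; decide)
  obtain ⟨g, hg⟩ := witt_vec (nd_qPlus (F := ZMod 2) 2) (u := a) (u' := Sum.elim ![0, 1] ![0, 1])
    (by decide) (by decide) (by simp only [qPlus_apply]; decide)
  have h3 : (φ g).2 = -1 := show c _ = -1 by rw [hg]; simp only [c, qPlus_apply]; decide
  have h4 : Function.Surjective φ := fun x => by
    have : ∀ x y : ℤˣ × ℤˣ, y.2 = -1 → x = 1 ∨ x = (-1, 1) ∨ x = y ∨ x = (-1, 1) * y := by decide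
    rcases this x _ h3 with rfl | rfl | rfl | rfl
    exacts [⟨1, map_one _⟩, ⟨_, h2⟩, ⟨g, rfl⟩, ⟨_ * g, by rw [map_mul, h2]⟩]
  have h5 := φ.ker.card_mul_index
  rw [index_ker, MonoidHom.range_eq_top.2 h4, card_top, card_O_qPlus] at h5
  simp only [Nat.card_prod, Nat.card_eq_fintype_card (α := ℤˣ), Fintype.card_units_int,
    Nat.card_zmod, Finset.prod_range_succ, Finset.prod_range_zero] at h5
  exact (card_dvd_of_le (Abelianization.commutator_subset_ker φ)).trans (dvd_of_eq (by omega))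

theorem exists_lieDat_PSU {F : Type} [Field F] [Fintype F] [CharP F p] {n q : ℕ}
    (hF : Fintype.card F = q ^ 2) :
    ∃ D : LieDat p (SU (n + 2) F q), center D.L ≤ (center D.G).subgroupOf D.L := by
  obtain ⟨σ₀, h₀⟩ := exists_isBar hF
  obtain ⟨σ, rfl⟩ : ∃ σ : F ≃+* F, σ = σ₀ := ⟨RingEquiv.ofBijective σ₀ h₀.bijective, rfl⟩
  obtain ⟨c, hc⟩ : ∃ c : Fˣ, σ c = (-1) ^ (n + 1) * c := by
    obtain ⟨δ, h1, h2⟩ := h₀.exists_skew
    rcases (n + 1).even_or_odd with h | h
    exacts [⟨1, by simp [h.neg_one_pow]⟩, ⟨Units.mk0 δ h1, by simpa [h.neg_one_pow] using h2⟩]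
  have hJ : ∀ i j, (σ : F →+* F) ((antiJ (n + 2) c).1 i j) = (antiJ (n + 2) c).1 j i := fun i j => by
    by_cases h : i = j.rev
    · have : n + 1 = j.rev.val + j := by simp only [Fin.val_rev]; omega
      simp only [h, antiJ, Matrix.of_apply, if_true, Fin.rev_rev, map_mul, map_pow, map_neg, map_one,
        RingHom.coe_coe, hc, this, pow_add]
      rw [mul_right_comm, mul_right_comm _ ((-1) ^ j.val), ← mul_pow, mul_comm]
      simp
    · simp [antiJ, h, Fin.rev_eq_iff.not.1 (Ne.symm h)]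
  have hd := (Matrix.isUnits_det_units (antiJ (n + 2) c)).ne_zero
  have hL : (twistSU (n + 1) σ c).Fix = mSU (σ : F →+* F) (antiJ (n + 2) c).1 :=
    Subgroup.ext fun _ => autSU_eq_iff σ c
  obtain ⟨e'⟩ := h₀.nonempty_msuEquiv hJ hd (Fintype.card_fin _)
  refine ⟨{ ι := _, Φ := _, κ := _, R := rootA (n + 1), T := symA _, F := F, G := _
            C := (realSL F (n + 1)).sys
            S := twistSU (n + 1) σ c
            L := _
            tw := isTw_fix (realSL F _).faithful (realSL F _).grp_eq Fin.rev_rev fun _ => h₀.invol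
            top := (realSL F _).grp_eq
            conn := conn_A _
            hMul := (realSL F _).hMul
            e := e'.symm.trans (MulEquiv.subgroupCongr hL.symm) }, fun z hz => ?_⟩
  obtain ⟨a, ha⟩ := ((isHerm_gramForm h₀.ne_id h₀.invol hJ hd).mem_center_SUG (by simp)).1
    ((Unitary.mem_center_equiv ((MulEquiv.subgroupCongr hL).trans (msuEquiv _ _))).2 hz)
  have : z.1.1 = a • 1 := mulVec_eq_smul_iff.1 ha
  exact mem_center_iff.2 fun g => Subtype.ext (show g.1 * z.1.1 = z.1.1 * g.1 by simp [this])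

theorem exists_small (F : Type*) [Field F] [Finite F] (p : ℕ) [CharP F p] :
    ∃ (K : Type) (_ : Field K) (_ : Fintype K) (_ : CharP K p), Nonempty (F ≃+* K) :=
  let e : Shrink.{0} F ≃+* F := { (equivShrink.{0} F).symm with
    map_mul' := fun _ _ => (equivShrink.{0} F).symm_apply_apply _
    map_add' := fun _ _ => (equivShrink.{0} F).symm_apply_apply _ }
  ⟨_, inferInstance, .ofFinite _,
    charP_of_injective_ringHom (f := e.symm.toRingHom) (RingEquiv.injective _) p, ⟨e.symm⟩⟩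

variable {F : Type*} [Field F] [Fintype F] [hp : Fact p.Prime] [CharP F p]

theorem hasSt_PSL (n : ℕ) : HasSt p (Matrix.ProjectiveSpecialLinearGroup (Fin (n + 2)) F) := by
  obtain ⟨K, _, _, _, ⟨f⟩⟩ := exists_small F p
  exact (LieDat.exists_quot_ofChev (realSL K (n + 1)).sys (realSL K _).faithful (realSL K _).grp_eq
    (conn_A _) (realSL K _).hMul (Linear.centerQuotCongr (Linear.congrSL (.refl _) f))).elim
    fun D _ => D.hasSt

theorem hasSt_PSp (n : ℕ) : HasSt p (PSp (n + 1) F) := by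
  obtain ⟨K, _, _, _, ⟨f⟩⟩ := exists_small F p
  exact (LieDat.exists_quot_ofChev (realSp K (n + 1)).sys (realSp K _).faithful (realSp K _).grp_eq
    (conn_C _) (realSp K _).hMul (Mult.pspCongr f _)).elim fun D _ => D.hasSt

theorem hasSt_PSU {q : ℕ} (hF : Fintype.card F = q ^ 2) (n : ℕ) : HasSt p (PSU (n + 2) F q) := by
  obtain ⟨K, _, _, _, ⟨f⟩⟩ := exists_small F p
  obtain ⟨D, hD⟩ := exists_lieDat_PSU (p := p) (n := n) ((Fintype.card_congr f.toEquiv).symm.trans hF)
  exact (D.quot hD).hasSt.congr (Mult.psuCongr f _ _)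

omit [CharP F p] in
theorem hasSt_binary {ι : Type} [Fintype ι] [DecidableEq ι] {Q : QuadraticForm F (ι → F)}
    (hQ : ND Q) (h : Fintype.card ι = 2) {n : ℕ} (hn : Nat.card (O Q) = 2 * n) :
    HasSt p (POmega F Q) := by
  obtain ⟨e⟩ := nonempty_equiv_dihedral hQ (by simpa using h) hn
  have h1 : _root_.commutator (O Q) ≤ (zpowers (DihedralGroup.r 1)).comap e.toMonoidHom := by
    rw [commutator_def, commutator_le]
    rintro a - b -
    rw [mem_comap, map_commutatorElement]
    have h2 : ∀ i : ZMod n, DihedralGroup.r i ∈ zpowers (DihedralGroup.r (1 : ZMod n)) := fun i =>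
      ⟨i.cast, by simp [DihedralGroup.r_one_zpow]⟩
    rcases e.toMonoidHom a with a | a <;> rcases e.toMonoidHom b with b | b <;> exact h2 _
  refine (hasSt_of_comm (fun a b => Subtype.ext (e.injective ?_)) hp.out).congr (pomegaEquiv Q)
  obtain ⟨i, hi⟩ := h1 a.2
  obtain ⟨j, hj⟩ := h1 b.2
  simp only [MulEquiv.toMonoidHom_eq_coe, MonoidHom.coe_coe] at hi hj
  simp only [coe_mul, map_mul, ← hi, ← hj, ← zpow_add, add_comm]

theorem hasSt_POmegaOdd (h : Odd (Fintype.card F)) (n : ℕ) :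
    HasSt p (POmega F (quadFormOdd (n + 1) F)) := by
  have h2 := two_ne_zero_of_odd_card h
  rcases n with _ | n
  · exact (nonempty_pomega_three h2).elim (hasSt_PSL 0).congr
  obtain ⟨K, _, _, _, ⟨f⟩⟩ := exists_small F p
  obtain ⟨S, h1, h3, h4, -⟩ := exists_omega_B K (n := n + 2) (by omega)
    (by rw [← map_ofNat f 2]; simpa using h2)
  exact (LieDat.exists_quot_ofChev S h1 h3 (conn_B _) h4 ((Mult.pomegaCongr f
    (by simp [quadFormOdd, qOdd_apply])).trans (pomegaEquiv (qOdd _ K)))).elim fun D _ => D.hasSt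

theorem hasSt_POmegaPlus (n : ℕ) : HasSt p (POmega F (quadFormPlus (n + 1) F)) := by
  rcases n with _ | _ | n
  · exact hasSt_binary (nd_qPlus 1) rfl (by rw [card_O_qPlus, mul_assoc, mul_assoc])
  · by_cases h : Nat.card F = 2
    · obtain rfl : p = 2 := by
        obtain ⟨k, -, hk⟩ := FiniteField.card F p
        rw [← Nat.card_eq_fintype_card, h] at hk
        exact (Nat.prime_dvd_prime_iff_eq hp.out Nat.prime_two).1 (hk ▸ dvd_pow_self p k.ne_zero)
      exact (hasSt_of_dvd card_omega_exc).congr ((Mult.pomegaCongr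
        (ZMod.ringEquivOfPrime F Nat.prime_two (Nat.card_eq_fintype_card.symm.trans h)).symm
        (by simp [quadFormPlus, qPlus_apply])).trans (pomegaEquiv (qPlus _ _)))
    · exact (nonempty_pomega_four_plus h).elim ((hasSt_PSL 0).prod (hasSt_PSL 0)).congr
  obtain ⟨K, _, _, _, ⟨f⟩⟩ := exists_small F p
  obtain ⟨S, h1, h3, h4, -⟩ := exists_omega_D K (n := n + 3) (by omega) (by omega)
  exact (LieDat.exists_quot_ofChev S h1 h3 (conn_D _ (by omega)) h4 ((Mult.pomegaCongr f
    (by simp [quadFormPlus, qPlus_apply])).trans (pomegaEquiv (qPlus _ K)))).elim fun D _ => D.hasSt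

theorem hasSt_POmegaMinus (n : ℕ) {a b : F} (h : Aniso a b) :
    HasSt p (POmega F (quadFormMinus n F a b)) := by
  obtain ⟨K, _, _, _, -, hK⟩ := GLC.exists_ext F two_ne_zero
  haveI := Fintype.ofFinite K
  haveI := charP_of_injective_algebraMap (algebraMap F K).injective p
  rw [Nat.card_eq_fintype_card, Nat.card_eq_fintype_card] at hK
  rcases n with _ | _ | _ | n
  · exact hasSt_binary (nd_qMinus 0 h) rfl (by rw [card_O_qMinus _ h, mul_assoc, mul_assoc])
  · exact (nonempty_pomega_four_minus rfl hK h).elim (hasSt_PSL 0).congr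
  · exact (nonempty_pomega_six_minus rfl hK h).elim (hasSt_PSU hK 2).congr
  obtain ⟨L, _, _, _, ⟨f⟩⟩ := exists_small F p
  refine (lieDat_POmegaMinus ⟨L, _, ‹_›, ‹_›, n + 4, f a, f b, by omega, fun x y e => ?_,
    ⟨Mult.pomegaCongr f (by simp [quadFormMinus])⟩⟩).elim fun D _ => D.hasSt
  obtain ⟨x, rfl⟩ := f.surjective x
  obtain ⟨y, rfl⟩ := f.surjective y
  simpa using h x y (f.injective (by simpa using e))

end Cfsg.Lib.St
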