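import Cfsg.Agent.Lib.St.Hecke
import Cfsg.Agent.Lib.St.Norm
import Cfsg.Agent.Lib.Block.Omega

/-!
The Hecke algebra `e ℂ[G] e` of a finite Tits system with constant index parameter `q`; the number
of irreducible constituents of `1_B^G` is the number of conjugacy classes of `W`.
-/

namespace Cfsg.Lib.St
open Cfsg.Lib.BN Cfsg.Lib.Char Cfsg.Lib.Block Finset Module MonoidAlgebra

section Alg
variable {G : Type*} [Group G] [Fintype G]

theorem ev_mul_eq_zero_of_idem {χ : G → ℂ} (hχ : IsCharacter G χ) {e : ℂ[G]} (he : e * e = e)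
    (h0 : ev χ e = 0) (a : ℂ[G]) : ev χ (e * a) = 0 := by
  obtain ⟨n, ρ, rfl⟩ := hχ
  have key : ∀ a : ℂ[G], ev ρ.character a = LinearMap.trace ℂ _ (ρ.asAlgebraHom a) := fun a => by
    conv_rhs => rw [eq_sum_single a]
    simp [ev_apply, Representation.character]
  have : ρ.asAlgebraHom e = 0 :=
    LinearMap.IsIdempotentElem.eq_zero_of_trace_eq_zero (by rw [IsIdempotentElem, ← map_mul, he])
      (by rw [← key, h0])
  rw [key, map_mul, this, zero_mul, map_zero]

/-- the sum of all conjugates -/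
noncomputable def zsum (a : ℂ[G]) : ℂ[G] := ∑ x, cj x a

theorem zsum_mem (a : ℂ[G]) : zsum a ∈ fix ℂ (⊤ : Subgroup G) := fun g _ => by
  rw [zsum, map_sum]
  simp only [← cj_mul]
  exact Fintype.sum_equiv (Equiv.mulLeft g) _ _ fun _ => rfl

theorem zsum_mul {y : ℂ[G]} (hy : y ∈ fix ℂ (⊤ : Subgroup G)) (a : ℂ[G]) :
    zsum (a * y) = zsum a * y := by
  rw [zsum, zsum, sum_mul]
  exact sum_congr rfl fun x _ => by rw [map_mul, hy x trivial]

theorem omega_zsum {χ : G → ℂ} (hχ : IsClassFunction G χ) (a : ℂ[G]) :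
    omega χ (zsum a) = Fintype.card G * (ev χ a / χ 1) := by
  simp [zsum, map_sum, omega_cj hχ, omega_apply χ a]

theorem eq_sum_fblk {z : ℂ[G]} (hz : z ∈ fix ℂ (⊤ : Subgroup G)) :
    z = ∑ χ : IrrCharacter G, omega χ z • fblk {χ} := by
  classical
  refine eq_of_omega_eq hz (Subalgebra.sum_mem _ fun χ _ =>
    Subalgebra.smul_mem _ (fblk_mem_fix _) _) fun ψ => ?_
  simp [map_sum, omega_fblk]

theorem fblk_mul_eq_zero {e : ℂ[G]} (he : e * e = e) {χ : IrrCharacter G} (h0 : ev χ e = 0) :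
    fblk {χ} * e = 0 := ext_coeff fun g => by
  rw [coeff_eq_sum_irr, sum_eq_zero, mul_zero, coeff_zero']
  intro ψ _
  by_cases h : ψ = χ
  · rw [mul_assoc, ev_fblk_mul_of_mem (B := {χ}) h, h,
      ev_mul_eq_zero_of_idem χ.2.isCharacter he h0, mul_zero]
  · rw [mul_assoc, ev_fblk_mul_of_notMem (B := {χ}) h, mul_zero]

theorem exists_zsum_inv {e : ℂ[G]} (he : e * e = e) :
    ∃ y ∈ fix ℂ (⊤ : Subgroup G), zsum e * y * e = e := by
  classical
  have hy : ∑ χ : IrrCharacter G, (omega χ (zsum e))⁻¹ • fblk {χ} ∈ fix ℂ (⊤ : Subgroup G) :=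
    Subalgebra.sum_mem _ fun χ _ => Subalgebra.smul_mem _ (fblk_mem_fix _) _
  refine ⟨_, hy, ?_⟩
  conv_rhs => rw [← one_mul e, eq_sum_fblk (one_mem (fix ℂ (⊤ : Subgroup G))), sum_mul]
  rw [eq_sum_fblk (mul_mem (zsum_mem e) hy), sum_mul]
  refine sum_congr rfl fun χ _ => ?_
  by_cases h0 : ev χ e = 0
  · simp [fblk_mul_eq_zero he h0]
  · have : omega χ (zsum e) ≠ 0 := by
      rw [omega_zsum χ.2.isClassFunction]
      exact mul_ne_zero (by simp) (div_ne_zero h0 χ.2.apply_one_ne_zero)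
    rw [omega_mul χ.2 (zsum_mem e), omega_one χ.2.apply_one_ne_zero]
    simp [map_sum, omega_fblk, this]

theorem finrank_center_mul {e : ℂ[G]} (he : e * e = e) {M : Submodule ℂ ℂ[G]}
    (hM : ∀ a, a ∈ M ↔ ∃ z ∈ fix ℂ (⊤ : Subgroup G), a = z * e) :
    finrank ℂ M = Nat.card {χ : IrrCharacter G // ev χ e ≠ 0} := by
  classical
  have hli : LinearIndependent ℂ fun χ : {χ : IrrCharacter G // ev χ e ≠ 0} => fblk {χ.1} * e := by
    refine Fintype.linearIndependent_iff.2 fun c hc ψ => ?_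
    have := congrArg (ev ψ.1) hc
    rw [map_sum, map_zero, sum_eq_single ψ] at this
    · rw [map_smul, ev_fblk_mul_of_mem (by simp)] at this
      simpa [ψ.2] using this
    · intro χ _ hne
      rw [map_smul, ev_fblk_mul_of_notMem (fun h => hne (Subtype.ext h.symm)), smul_zero]
    · simp
  rw [Nat.card_eq_fintype_card, ← finrank_span_eq_card hli]
  suffices h : M = Submodule.span ℂ (Set.range _) by rw [h]
  refine le_antisymm (fun a ha => ?_) (Submodule.span_le.2 ?_)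
  · obtain ⟨z, hz, rfl⟩ := (hM a).1 ha
    rw [eq_sum_fblk hz, sum_mul]
    refine Submodule.sum_mem _ fun χ _ => ?_
    by_cases h0 : ev χ e = 0
    · simp [fblk_mul_eq_zero he h0]
    · rw [smul_mul_assoc]
      exact Submodule.smul_mem _ _ (Submodule.subset_span ⟨⟨χ, h0⟩, rfl⟩)
  · rintro _ ⟨χ, rfl⟩
    exact (hM _).2 ⟨_, fblk_mem_fix _, rfl⟩

end Alg

namespace Tits
variable {ι W : Type*} [Group W] {G : Type*} [Group G] [Fintype G] {s : ι → W}
  (T : Tits G s Set.univ)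

omit [Fintype G] in
theorem δ_surj (w : W) : ∃ g, T.δ g = w :=
  T.exists_δ (by rw [WJ, Set.image_univ, T.invGen.gen]; trivial)

/-- bi-invariant elements of the group algebra -/
noncomputable def phi : (W → ℂ) →ₗ[ℂ] ℂ[G] where
  toFun v := ofFun fun g => v (T.δ g)
  map_add' v v' := ext_coeff fun g => by simp [coeff_add']
  map_smul' c v := ext_coeff fun g => by simp [coeff_smul']

theorem coeff_phi (v : W → ℂ) (g : G) : (T.phi v).coeff g = v (T.δ g) := coeff_ofFun _ _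

theorem phi_injective : Function.Injective T.phi := fun v v' h => funext fun w => by
  obtain ⟨g, rfl⟩ := T.δ_surj w
  rw [← T.coeff_phi v, h, coeff_phi]

variable [DecidableEq W]

/-- the normalized double coset sum -/
noncomputable def tw (w : W) : ℂ[G] := (Nat.card T.B : ℂ)⁻¹ • T.phi (Pi.single w 1)

theorem tw_eq (w : W) : T.tw w = (Nat.card T.B : ℂ)⁻¹ • ∑ x with T.δ x = w, of ℂ G x := by
  classical
  rw [tw]
  congr 1
  refine ext_coeff fun g => ?_
  simp [coeff_phi, Finsupp.single_apply, Pi.single_apply]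

theorem card_filter_one : (#{x | T.δ x = 1} : ℂ) = Nat.card T.B := by
  classical
  rw [Nat.card_eq_fintype_card, Fintype.card_subtype]
  simp only [T.mem_B]

theorem e_mul_phi (v : W → ℂ) : T.tw 1 * T.phi v = T.phi v := by
  rw [tw_eq, smul_mul_assoc, sum_mul, sum_congr rfl (g := fun _ => T.phi v), sum_const,
    ← Nat.cast_smul_eq_nsmul ℂ, card_filter_one, smul_smul,
    inv_mul_cancel₀ (card_ne_zero_complex _), one_smul]
  intro x hx
  refine ext_coeff fun g => ?_
  rw [coeff_of_mul, coeff_phi, coeff_phi, T.δ_B_mul (inv_mem (T.mem_B.2 (mem_filter.1 hx).2))]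

theorem phi_mul_e (v : W → ℂ) : T.phi v * T.tw 1 = T.phi v := by
  rw [tw_eq, mul_smul_comm, mul_sum, sum_congr rfl (g := fun _ => T.phi v), sum_const,
    ← Nat.cast_smul_eq_nsmul ℂ, card_filter_one, smul_smul,
    inv_mul_cancel₀ (card_ne_zero_complex _), one_smul]
  intro x hx
  refine ext_coeff fun g => ?_
  rw [coeff_mul_of, coeff_phi, coeff_phi, T.δ_mul_B _ (inv_mem (T.mem_B.2 (mem_filter.1 hx).2))]

theorem e_mul_tw (w : W) : T.tw 1 * T.tw w = T.tw w := by rw [tw.eq_1 T w, mul_smul_comm, e_mul_phi]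

theorem tw_mul_e (w : W) : T.tw w * T.tw 1 = T.tw w := by
  rw [tw.eq_1 T w, smul_mul_assoc, phi_mul_e]

theorem of_mul_e {b : G} (hb : b ∈ T.B) : of ℂ G b * T.tw 1 = T.tw 1 := ext_coeff fun g => by
  rw [coeff_of_mul, tw, coeff_smul', coeff_smul', coeff_phi, coeff_phi, T.δ_B_mul (inv_mem hb)]

theorem e_mul_of {b : G} (hb : b ∈ T.B) : T.tw 1 * of ℂ G b = T.tw 1 := ext_coeff fun g => by
  rw [coeff_mul_of, tw, coeff_smul', coeff_smul', coeff_phi, coeff_phi, T.δ_mul_B _ (inv_mem hb)]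

theorem exists_phi (a : ℂ[G]) : ∃ v, T.phi v = T.tw 1 * a * T.tw 1 := by
  choose σ hσ using T.δ_surj
  refine ⟨fun w => (T.tw 1 * a * T.tw 1).coeff (σ w), ext_coeff fun g => ?_⟩
  obtain ⟨b, hb, b', hb', e⟩ := T.eq_of (hσ (T.δ g))
  have : T.tw 1 * a * T.tw 1 = of ℂ G b * (T.tw 1 * a * T.tw 1) * of ℂ G b' := by
    rw [← mul_assoc, ← mul_assoc, T.of_mul_e hb, mul_assoc _ _ (of ℂ G b'), T.e_mul_of hb']
  rw [coeff_phi]
  conv_rhs => rw [this, e, coeff_mul_of, coeff_of_mul]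
  simp [mul_assoc]

theorem exe_eq {x y : G} (h : T.δ x = T.δ y) :
    T.tw 1 * of ℂ G y * T.tw 1 = T.tw 1 * of ℂ G x * T.tw 1 := by
  obtain ⟨b, hb, b', hb', rfl⟩ := T.eq_of h
  rw [map_mul, map_mul, ← mul_assoc, ← mul_assoc, T.e_mul_of hb, mul_assoc _ (of ℂ G b'),
    T.of_mul_e hb']

theorem sum_exe (w : W) :
    ∑ x with T.δ x = w, T.tw 1 * of ℂ G x * T.tw 1 = (Nat.card T.B : ℂ) • T.tw w := by
  rw [← sum_mul, ← mul_sum, ← T.tw_mul_e w, ← T.e_mul_tw w, T.tw_eq w, mul_smul_comm,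
    smul_mul_assoc, smul_smul, mul_inv_cancel₀ (card_ne_zero_complex _), one_smul]

variable {q : ℕ} (hq : ∀ i, Nat.card {x // T.δ x = s i} = q * Nat.card T.B)
include hq

theorem card_filter_simple (i : ι) : (#{x | T.δ x = s i} : ℂ) = q * Nat.card T.B := by
  rw [← Nat.cast_mul, ← hq i, Nat.card_eq_fintype_card, Fintype.card_subtype]

theorem sum_cell (i : ι) (F : W → ℂ) (g : G) :
    ∑ x with T.δ x = s i, F (T.δ (x * g)) = Nat.card T.B * lam s q i F (T.δ g) := by
  classical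
  have h := T.invGen
  rw [lam, hop_apply]
  split_ifs with hl
  · rw [sum_congr rfl (g := fun _ => F (s i * T.δ g)), sum_const, nsmul_eq_mul,
      T.card_filter_simple hq]
    · ring
    · exact fun x hx => by rw [T.simple_mul_of_le (mem_filter.1 hx).2 g hl.le]
  · have e1 := h.len_simple_mul_ne T.exch i (T.δ g)
    obtain ⟨x₁, hx₁⟩ := T.δ_surj (s i)
    obtain ⟨y, hy⟩ := T.δ_surj (s i * T.δ g)
    have hle : len s (T.δ y) ≤ len s (s i * T.δ y) := by rw [hy, h.cancel_left]; omega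
    have h1 : T.δ (x₁ * y) = T.δ g := by rw [T.simple_mul_of_le hx₁ y hle, hy, h.cancel_left]
    obtain ⟨b, hb, b', hb', e⟩ := T.eq_of h1
    have hx₂ : T.δ (b * x₁) = s i := by rw [T.δ_B_mul hb, hx₁]
    have e2 : ∀ x, T.δ (x * g) = T.δ (x * (b * x₁) * y) := fun x => by
      rw [e, ← T.δ_mul_B (x * (b * x₁) * y) hb']; simp only [mul_assoc]
    rw [← sum_filter_add_sum_filter_not _ (fun x => T.δ (x * (b * x₁)) = 1)]
    have hc : #{x ∈ {x | T.δ x = s i} | T.δ (x * (b * x₁)) = 1} = #{x | T.δ x = 1} := by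
      refine card_bij' (fun x _ => x * (b * x₁)) (fun x _ => x * (b * x₁)⁻¹) (fun x hx => ?_)
        (fun x hx => ?_) (fun _ _ => by group) (fun _ _ => by group)
      · simpa using (mem_filter.1 hx).2
      · have hx' := (mem_filter.1 hx).2
        simp only [mem_filter, mem_univ, true_and, inv_mul_cancel_right]
        exact ⟨by rw [T.δ_B_mul (T.mem_B.2 hx'), T.δ_inv, hx₂, h.inv], hx'⟩
    have hc' := card_filter_add_card_filter_not (s := {x | T.δ x = s i})
      (fun x => T.δ (x * (b * x₁)) = 1)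
    have hc2 := congrArg (Nat.cast : ℕ → ℂ) hc'
    rw [Nat.cast_add, hc, card_filter_one, T.card_filter_simple hq] at hc2
    rw [sum_congr rfl (g := fun _ => F (s i * T.δ g)),
      sum_congr (f := fun x => F (T.δ (x * g))) rfl (g := fun _ => F (T.δ g)), sum_const,
      sum_const, nsmul_eq_mul, nsmul_eq_mul, hc, card_filter_one, eq_sub_of_add_eq' hc2]
    · ring
    · intro x hx
      have h2 := (mem_filter.1 hx).2
      have h3 : T.δ (x * (b * x₁)) = s i := by
        rcases T.simple_mul (mem_filter.1 (mem_filter.1 hx).1).2 (b * x₁) with h3 | h3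
        · exact absurd (by rw [h3, hx₂, h.sq]) h2
        · rw [h3, hx₂]
      rw [e2, T.simple_mul_of_le h3 y hle, hy, h.cancel_left]
    · intro x hx
      rw [e2, T.δ_B_mul (T.mem_B.2 (mem_filter.1 hx).2), hy]

theorem tw_mul_phi (i : ι) (v : W → ℂ) : T.tw (s i) * T.phi v = T.phi (lam s q i v) := by
  refine ext_coeff fun g => ?_
  rw [tw_eq, smul_mul_assoc, sum_mul, coeff_smul', coeff_sum', coeff_phi]
  simp only [coeff_of_mul, coeff_phi]
  rw [sum_bij' (t := {x | T.δ x = s i}) (g := fun x => v (T.δ (x * g))) (fun x _ => x⁻¹)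
    (fun x _ => x⁻¹) (by simp +contextual [T.δ_inv, T.invGen.inv])
    (by simp +contextual [T.δ_inv, T.invGen.inv]) (by simp) (by simp) (by simp),
    T.sum_cell hq, inv_mul_cancel_left₀ (card_ne_zero_complex _)]

theorem phi_mul_tw (i : ι) (v : W → ℂ) : T.phi v * T.tw (s i) = T.phi (rho s q i v) := by
  refine ext_coeff fun g => ?_
  rw [tw_eq, mul_smul_comm, mul_sum, coeff_smul', coeff_sum', coeff_phi]
  simp only [coeff_mul_of, coeff_phi]
  have := T.sum_cell hq i (fun w => v w⁻¹) g⁻¹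
  simp only [← T.δ_inv, mul_inv_rev, inv_inv] at this
  rw [this, inv_mul_cancel_left₀ (card_ne_zero_complex _), lam, rho, hop_apply, hop_apply,
    ← T.invGen.len_inv (s i * _)]
  simp only [T.δ_inv, mul_inv_rev, inv_inv, T.invGen.inv, T.invGen.len_inv]

theorem phi_lams (l : List ι) (v : W → ℂ) :
    T.phi ((l.map (lam s q)).prod v) = (l.map fun i => T.tw (s i)).prod * T.phi v := by
  induction l with
  | nil => simp
  | cons i l ih => simp [← T.tw_mul_phi hq, ih, mul_assoc]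

theorem phi_rhos (l : List ι) (v : W → ℂ) :
    T.phi ((l.map (rho s q)).prod v) = T.phi v * (l.map fun i => T.tw (s i)).reverse.prod := by
  induction l with
  | nil => simp
  | cons i l ih => simp [← T.phi_mul_tw hq, ih, mul_assoc]

theorem prod_mul_e {l : List ι} (hl : len s (wp s l) = l.length) :
    (l.map fun i => T.tw (s i)).prod * T.tw 1 = T.tw (wp s l) := by
  rw [tw.eq_1 T 1, mul_smul_comm, ← T.phi_lams hq, lams_single T.invGen _ hl, tw]

theorem e_mul_prod {l : List ι} (hl : len s (wp s l) = l.length) :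
    T.tw 1 * (l.map fun i => T.tw (s i)).reverse.prod = T.tw (wp s l)⁻¹ := by
  rw [tw.eq_1 T 1, smul_mul_assoc, ← T.phi_rhos hq, rhos_single T.invGen _ hl, tw]

theorem phi_theta (w : W) (v : W → ℂ) :
    T.phi (theta T.invGen q w v) = T.tw w * T.phi v * T.tw w⁻¹ := by
  rw [theta, End.mul_apply, T.phi_lams hq, T.phi_rhos hq, ← T.phi_mul_e v, mul_assoc,
    T.e_mul_prod hq (len_rword _ w), ← T.e_mul_phi v, ← mul_assoc, ← mul_assoc,
    T.prod_mul_e hq (len_rword _ w), wp_rword, T.e_mul_phi v, T.phi_mul_e v]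

theorem tw_eq_exe (x : G) :
    T.tw (T.δ x) = (q : ℂ) ^ len s (T.δ x) • (T.tw 1 * of ℂ G x * T.tw 1) := by
  have hB := card_ne_zero_complex T.B
  let aug : ℂ[G] →ₐ[ℂ] ℂ := MonoidAlgebra.lift ℂ ℂ G 1
  have ha : ∀ w, aug (T.tw w) = (Nat.card T.B : ℂ)⁻¹ * #{x | T.δ x = w} := fun w => by
    simp [tw_eq, map_sum, aug]
  have h1 : aug (T.tw 1) = 1 := by rw [ha, card_filter_one, inv_mul_cancel₀ hB]
  have h2 : ∀ l : List ι, aug (l.map fun i => T.tw (s i)).prod = q ^ l.length := fun l => by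
    induction l with
    | nil => simp
    | cons i l ih =>
      rw [List.map_cons, List.prod_cons, map_mul, ih, ha, T.card_filter_simple hq,
        List.length_cons, pow_succ]
      field_simp
  have h3 := congrArg aug (T.prod_mul_e hq (len_rword T.invGen (T.δ x)))
  rw [map_mul, h1, h2, ← len_rword, wp_rword, ha, mul_one] at h3
  have h4 := T.sum_exe (T.δ x)
  rw [sum_congr rfl (fun y hy => T.exe_eq (x := x) (mem_filter.1 hy).2.symm), sum_const,
    ← Nat.cast_smul_eq_nsmul ℂ] at h4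
  rw [h3, mul_smul, h4, smul_smul, inv_mul_cancel₀ hB, one_smul]

omit hq in
theorem zsum_phi_mul_e (v : W → ℂ) : zsum (T.phi v) * T.tw 1 =
    ∑ x, (T.tw 1 * of ℂ G x * T.tw 1) * T.phi v * (T.tw 1 * of ℂ G x⁻¹ * T.tw 1) := by
  conv_lhs => rw [← T.tw_mul_e 1, ← mul_assoc, ← (commute_of_fix_top (zsum_mem _) _).eq, zsum,
    mul_sum, sum_mul]
  refine sum_congr rfl fun x _ => ?_
  rw [cj_eq, mul_assoc _ (T.tw 1) (T.phi v), e_mul_phi]
  simp only [← mul_assoc]
  rw [mul_assoc _ (T.phi v) (T.tw 1), phi_mul_e]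

variable [Fintype W]

theorem phi_gam (v : W → ℂ) : (Nat.card T.B : ℂ) • T.phi (gam T.invGen q v) =
    (q : ℂ) ^ (univ.sup (len s) : ℕ) • (zsum (T.phi v) * T.tw 1) := by
  rw [zsum_phi_mul_e, gam, LinearMap.sum_apply, map_sum, smul_sum, smul_sum,
    ← sum_fiberwise (s := univ) T.δ]
  refine sum_congr rfl fun w _ => ?_
  rw [LinearMap.smul_apply, map_smul, T.phi_theta hq, smul_comm,
    ← smul_mul_assoc (Nat.card T.B : ℂ), ← smul_mul_assoc (Nat.card T.B : ℂ), ← T.sum_exe, sum_mul,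
    sum_mul, smul_sum]
  refine sum_congr rfl fun x hx => ?_
  have hx' := (mem_filter.1 hx).2
  have e2 : len s w ≤ univ.sup (len s) := le_sup (f := len s) (mem_univ _)
  rw [← hx', ← T.δ_inv, T.tw_eq_exe hq x⁻¹, T.δ_inv, T.invGen.len_inv, mul_smul_comm, smul_smul,
    ← pow_add, hx', Nat.sub_add_cancel e2]

theorem mem_range_gam_iff (hq0 : q ≠ 0) (a : ℂ[G]) :
    a ∈ (LinearMap.range (gam T.invGen q)).map T.phi ↔
      ∃ z ∈ fix ℂ (⊤ : Subgroup G), a = z * T.tw 1 := by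
  have hB := card_ne_zero_complex T.B
  have hq' : (q : ℂ) ^ (univ.sup (len s) : ℕ) ≠ 0 := pow_ne_zero _ (Nat.cast_ne_zero.2 hq0)
  constructor
  · rintro ⟨_, ⟨v, rfl⟩, rfl⟩
    refine ⟨((Nat.card T.B : ℂ)⁻¹ * (q : ℂ) ^ (univ.sup (len s) : ℕ)) • zsum (T.phi v),
      Subalgebra.smul_mem _ (zsum_mem _) _, ?_⟩
    rw [smul_mul_assoc, mul_smul, ← T.phi_gam hq, smul_smul, inv_mul_cancel₀ hB, one_smul]
  · rintro ⟨z, hz, rfl⟩
    obtain ⟨y, hy, e⟩ := exists_zsum_inv (T.tw_mul_e 1)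
    obtain ⟨v, hv⟩ := T.exists_phi (y * z)
    rw [mul_assoc, ← (commute_of_fix_top (mul_mem hy hz) _).eq, ← mul_assoc, tw_mul_e] at hv
    refine ⟨_, ⟨((Nat.card T.B : ℂ) * ((q : ℂ) ^ (univ.sup (len s) : ℕ))⁻¹) • v, rfl⟩, ?_⟩
    rw [map_smul, map_smul, mul_comm, mul_smul, T.phi_gam hq, smul_smul, inv_mul_cancel₀ hq',
      one_smul, hv, zsum_mul (mul_mem hy hz), ← mul_assoc, (commute_of_fix_top hz _).eq, mul_assoc,
      e]

theorem mem_range_gam (hq0 : q ≠ 0) (v : W → ℂ) (hv : ∀ i, lam s q i v = rho s q i v) :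
    v ∈ LinearMap.range (gam T.invGen q) := by
  have h1 : ∀ w, Commute (T.tw w) (T.phi v) := fun w => by
    rw [← wp_rword T.invGen w, ← T.prod_mul_e hq (len_rword _ w)]
    refine Commute.mul_left (Commute.list_prod_left _ _ fun a ha => ?_) ?_
    · obtain ⟨i, -, rfl⟩ := List.mem_map.1 ha
      rw [Commute, SemiconjBy, T.tw_mul_phi hq, T.phi_mul_tw hq, hv]
    · rw [Commute, SemiconjBy, e_mul_phi, phi_mul_e]
  have h2 : ∀ x, Commute (T.tw 1 * of ℂ G x * T.tw 1) (T.phi v) := fun x => by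
    have := (h1 (T.δ x)).smul_left (((q : ℂ) ^ len s (T.δ x))⁻¹)
    rwa [T.tw_eq_exe hq, smul_smul, inv_mul_cancel₀ (pow_ne_zero _ (Nat.cast_ne_zero.2 hq0)),
      one_smul] at this
  have h3 : zsum (T.phi v) * T.tw 1 = T.phi v * (zsum (T.tw 1) * T.tw 1) := by
    have h4 := T.zsum_phi_mul_e ((Nat.card T.B : ℂ)⁻¹ • Pi.single 1 1)
    rw [map_smul, ← tw] at h4
    rw [zsum_phi_mul_e, h4, mul_sum]
    refine sum_congr rfl fun x _ => ?_
    rw [(h2 x).eq, mul_assoc _ (T.tw 1) (T.tw 1), tw_mul_e, mul_assoc]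
  obtain ⟨y, hy, e⟩ := exists_zsum_inv (T.tw_mul_e 1)
  obtain ⟨u, hu, e'⟩ := (T.mem_range_gam_iff hq hq0 (T.phi v)).2
    ⟨zsum (T.phi v) * y, mul_mem (zsum_mem _) hy, by
      rw [mul_assoc, ← (commute_of_fix_top hy _).eq, ← mul_assoc, h3, mul_assoc, mul_assoc,
        (commute_of_fix_top hy _).eq, ← mul_assoc (zsum _), e, phi_mul_e]⟩
  rwa [← T.phi_injective e']

theorem finrank_range_gam (hq0 : q ≠ 0) : finrank ℂ (LinearMap.range (gam T.invGen q)) =
    Nat.card {χ : IrrCharacter G // ev χ (T.tw 1) ≠ 0} := by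
  rw [← finrank_center_mul (T.tw_mul_e 1) (T.mem_range_gam_iff hq hq0)]
  exact (Submodule.equivMapOfInjective _ T.phi_injective _).finrank_eq

omit hq [Fintype W] in
theorem ev_e_ne_zero_iff (χ : IrrCharacter G) : ev χ (T.tw 1) ≠ 0 ↔
    ∃ φ, IsCharacter G φ ∧ fixedPointCharacter T.B = (χ : G → ℂ) + φ := by
  classical
  have e : ev χ (T.tw 1) = classInner (fixedPointCharacter T.B) χ := by
    rw [(isCharacter_perm T.B).inner_comm χ.2.isCharacter,
      inner_perm_right _ χ.2.isClassFunction, classInner_one_right, tw_eq, map_smul, map_sum]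
    simp only [ev_of, smul_eq_mul]
    rw [sum_subtype (p := (· ∈ T.B)) _ (by simp [T.mem_B])]
  rw [e]
  refine ⟨fun h => ⟨_, (isCharacter_perm T.B).sub_irr χ.2 h, by simp⟩, ?_⟩
  rintro ⟨φ, hφ, e'⟩
  obtain ⟨n, hn⟩ := hφ.exists_inner_eq_nat χ.2.isCharacter
  rw [e', classInner_add_left, χ.2.inner_self, hn]
  exact_mod_cast (by omega : 1 + n ≠ 0)

omit [Fintype G] [DecidableEq W] [Fintype W] in
/-- the number of constituents of `1_B^G` -/
theorem card_constituents [Finite G] [Finite ι] (hq0 : q ≠ 0) :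
    Nat.card {χ : IrrCharacter G //
      ∃ φ, IsCharacter G φ ∧ fixedPointCharacter T.B = (χ : G → ℂ) + φ} =
    Nat.card (ConjClasses W) := by
  classical
  have := Fintype.ofFinite G
  have := Fintype.ofFinite ι
  have : Finite W := Finite.of_surjective _ T.δ_surj
  have := Fintype.ofFinite W
  have h1 : ∀ i, Nat.card {x // (selfTits T.invGen T.exch).δ x = s i} =
      1 * Nat.card (selfTits T.invGen T.exch).B := fun i => by simp [selfTits]
  have e := rank_gam_eq T.invGen T.exch (T.mem_range_gam hq hq0)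
    ((selfTits T.invGen T.exch).mem_range_gam h1 one_ne_zero)
  rw [T.finrank_range_gam hq hq0, (selfTits T.invGen T.exch).finrank_range_gam h1 one_ne_zero] at e
  rw [← Nat.card_congr (Equiv.subtypeEquivRight T.ev_e_ne_zero_iff), e,
    ← card_irr_eq_card_conjClasses]
  refine Nat.card_congr (Equiv.subtypeUnivEquiv fun χ => ?_)
  rw [tw_eq, show ({x | (selfTits T.invGen T.exch).δ x = 1} : Finset W) = {1} by
    ext; rw [mem_filter, mem_singleton]; simp [selfTits]]
  simp [selfTits, ev_one, ← one_def, χ.2.apply_one_ne_zero]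

end Tits
end Cfsg.Lib.St
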